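import Mathlib
import Cfsg.Agent.Lib.Helper19.SPU.Defs

/-!
# SPU (S2316): packages [SUM1] and [SUM2]

The strata of even stable rank exhaust the isometry group / the affine family.
-/

set_option autoImplicit false

namespace Cfsg.Agent.Lib.Helper83.SPU

open Matrix Cfsg.Agent.Lib.Helper19.SPU

universe u

/-- fibre sum over even values -/
theorem sum_strata83 {M : Type*} [Finite M] (p : M → Prop) (f : M → ℕ) (m : ℕ)
    (h : ∀ x, p x → ∃ l, l ≤ m ∧ f x = 2 * l) :
    ∑ l ∈ Finset.range (m + 1), Nat.card {x : M // p x ∧ f x = 2 * l} =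
      Nat.card {x : M // p x} := by
  classical
  haveI := Fintype.ofFinite M
  have h1 : ∀ l, Nat.card {x : M // p x ∧ f x = 2 * l} =
      ((Finset.univ.filter p).filter (fun x => f x = 2 * l)).card := by
    intro l
    rw [Nat.card_eq_fintype_card, Fintype.card_subtype, Finset.filter_filter]
  have h2 : Nat.card {x : M // p x} = (Finset.univ.filter p).card := by
    rw [Nat.card_eq_fintype_card, Fintype.card_subtype]
  rw [h2, Finset.sum_congr rfl (fun l _ => h1 l)]
  have h3 := Finset.card_eq_sum_card_fiberwise (s := Finset.univ.filter p)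
    (t := (Finset.range (m + 1)).image (fun l => 2 * l)) (f := f) (by
      intro x hx
      have hx' : p x := by simpa using hx
      obtain ⟨l, hl, hfl⟩ := h x hx'
      simp only [Finset.coe_image, Finset.coe_range, Set.mem_image, Set.mem_Iio]
      exact ⟨l, by omega, hfl.symm⟩)
  rw [h3, Finset.sum_image]
  intro a _ b _ hab
  have : 2 * a = 2 * b := hab
  omega

section transport

variable {F : Type u} [Field F] {n n' : Type} [Fintype n] [DecidableEq n]
  [Fintype n'] [DecidableEq n']

theorem pow_submatrix83 (e : n' ≃ n) (A : Matrix n n F) (k : ℕ) :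
    (A.submatrix e e) ^ k = (A ^ k).submatrix e e := by
  induction k with
  | zero => simp
  | succ k ih => rw [pow_succ, pow_succ, ih, Matrix.submatrix_mul_equiv]

theorem isSymp_submatrix83 (e : n' ≃ n) {K : Matrix n n F} (hK : IsSymp K) :
    IsSymp (K.submatrix e e) := by
  obtain ⟨h1, h2, h3⟩ := hK
  refine ⟨?_, fun i => h2 (e i), ?_⟩
  · rw [Matrix.transpose_submatrix, h1]; rfl
  · rw [Matrix.isUnit_iff_isUnit_det] at h3 ⊢
    rwa [Matrix.det_submatrix_equiv_self]

omit [DecidableEq n] [DecidableEq n'] in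
theorem isom_submatrix83 (e : n' ≃ n) {K g : Matrix n n F} (h : Isom K g) :
    Isom (K.submatrix e e) (g.submatrix e e) := by
  unfold Isom at h ⊢
  rw [Matrix.transpose_submatrix, Matrix.submatrix_mul_equiv, Matrix.submatrix_mul_equiv, h]

omit [DecidableEq n] [DecidableEq n'] in
theorem affA_submatrix83 (e : n' ≃ n) {K X : Matrix n n F} (h : AffA K X) :
    AffA (K.submatrix e e) (X.submatrix e e) := by
  unfold AffA at h ⊢
  rw [Matrix.transpose_submatrix, Matrix.submatrix_mul_equiv, Matrix.submatrix_mul_equiv]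
  have h1 : (Xᵀ * K).submatrix e e + (K * X).submatrix e e + K.submatrix e e
      = (Xᵀ * K + K * X + K).submatrix e e := rfl
  rw [h1, h]
  rfl

theorem isSymp_J83 (m : ℕ) : IsSymp (Matrix.J (Fin m) F) := by
  refine ⟨Matrix.J_transpose (Fin m) F, ?_, ?_⟩
  · intro i
    rcases i with i | i <;> simp [Matrix.J]
  · rw [Matrix.isUnit_iff_isUnit_det]
    exact Matrix.isUnit_det_J (Fin m) F

end transport

/-- the stable rank of `g - 1` is even (from [DEC1] and [EVEN]). -/
theorem even_rank1_83 (hDec : PkgDec1.{u}) (hEven : PkgEven.{u}) {F : Type u} [Field F]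
    {n : Type} [Fintype n] [DecidableEq n] (K g : Matrix n n F) (hK : IsSymp K)
    (hg : Isom K g) : Even (((g - 1) ^ Fintype.card n).rank) := by
  obtain ⟨r, hr⟩ : ∃ r, ((g - 1) ^ Fintype.card n).rank = r := ⟨_, rfl⟩
  rw [hr]
  have hle : r ≤ Fintype.card n := hr ▸ Matrix.rank_le_card_width _
  have hcard : Fintype.card (Fin (Fintype.card n - r) ⊕ Fin r) = Fintype.card n := by
    simp only [Fintype.card_sum, Fintype.card_fin]; omega
  obtain ⟨e⟩ : Nonempty (Fin (Fintype.card n - r) ⊕ Fin r ≃ n) :=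
    ⟨Fintype.equivOfCardEq hcard⟩
  have key := hDec F (Fin (Fintype.card n - r)) (Fin r) (K.submatrix e e) (g.submatrix e e)
    (isSymp_submatrix83 e hK) (isom_submatrix83 e hg) (by
      have h1 : g.submatrix e e - 1 = (g - 1).submatrix e e := by
        ext i j
        simp [Matrix.sub_apply, Matrix.one_apply, EmbeddingLike.apply_eq_iff_eq]
      rw [h1, pow_submatrix83, Matrix.rank_submatrix]
      simp only [Fintype.card_fin]
      have h2 : Fintype.card n - r + r = Fintype.card n := by omega
      rw [h2, hr])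
  obtain ⟨P, K₁, K₂, g₁, g₂, hK1, hK2, -⟩ := key
  simpa using hEven F (Fin r) K₂ hK2

/-- the stable rank of `X² + X` is even (from [DEC2] and [EVEN]). -/
theorem even_rank2_83 (hDec : PkgDec2.{u}) (hEven : PkgEven.{u}) {F : Type u} [Field F]
    {n : Type} [Fintype n] [DecidableEq n] (K X : Matrix n n F) (hK : IsSymp K)
    (hX : AffA K X) : Even (((X * X + X) ^ Fintype.card n).rank) := by
  obtain ⟨r, hr⟩ : ∃ r, ((X * X + X) ^ Fintype.card n).rank = r := ⟨_, rfl⟩
  rw [hr]
  have hle : r ≤ Fintype.card n := hr ▸ Matrix.rank_le_card_width _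
  have hcard : Fintype.card (Fin (Fintype.card n - r) ⊕ Fin r) = Fintype.card n := by
    simp only [Fintype.card_sum, Fintype.card_fin]; omega
  obtain ⟨e⟩ : Nonempty (Fin (Fintype.card n - r) ⊕ Fin r ≃ n) :=
    ⟨Fintype.equivOfCardEq hcard⟩
  have key := hDec F (Fin (Fintype.card n - r)) (Fin r) (K.submatrix e e) (X.submatrix e e)
    (isSymp_submatrix83 e hK) (affA_submatrix83 e hX) (by
      have h1 : X.submatrix e e * X.submatrix e e + X.submatrix e e
          = (X * X + X).submatrix e e := by
        rw [Matrix.submatrix_mul_equiv]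
        rfl
      rw [h1, pow_submatrix83, Matrix.rank_submatrix]
      simp only [Fintype.card_fin]
      have h2 : Fintype.card n - r + r = Fintype.card n := by omega
      rw [h2, hr])
  obtain ⟨P, K₁, K₂, X₁, X₂, hK1, hK2, -⟩ := key
  simpa using hEven F (Fin r) K₂ hK2

/-- **[SUM1]** -/
theorem pkgSum1_of (hDec : PkgDec1.{u}) (hEven : PkgEven.{u}) : PkgSum1.{u} := by
  intro F _ _ m
  classical
  exact sum_strata83 (M := Matrix (Fin m ⊕ Fin m) (Fin m ⊕ Fin m) F)
    (fun g => Isom (Matrix.J (Fin m) F) g)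
    (fun g => ((g - 1) ^ Fintype.card (Fin m ⊕ Fin m)).rank) m (by
      intro g hg
      have hev := even_rank1_83 hDec hEven _ g (isSymp_J83 m) hg
      have hle : ((g - 1) ^ Fintype.card (Fin m ⊕ Fin m)).rank ≤ Fintype.card (Fin m ⊕ Fin m) :=
        Matrix.rank_le_card_width _
      simp only [Fintype.card_sum, Fintype.card_fin] at hle hev ⊢
      obtain ⟨l, hl⟩ := hev
      exact ⟨l, by omega, by omega⟩)

/-- **[SUM2]** -/
theorem pkgSum2_of (hDec : PkgDec2.{u}) (hEven : PkgEven.{u}) : PkgSum2.{u} := by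
  intro F _ _ m
  classical
  exact sum_strata83 (M := Matrix (Fin m ⊕ Fin m) (Fin m ⊕ Fin m) F)
    (fun X => AffA (Matrix.J (Fin m) F) X)
    (fun X => ((X * X + X) ^ Fintype.card (Fin m ⊕ Fin m)).rank) m (by
      intro X hX
      have hev := even_rank2_83 hDec hEven _ X (isSymp_J83 m) hX
      have hle : ((X * X + X) ^ Fintype.card (Fin m ⊕ Fin m)).rank
          ≤ Fintype.card (Fin m ⊕ Fin m) := Matrix.rank_le_card_width _
      simp only [Fintype.card_sum, Fintype.card_fin] at hle hev ⊢
      obtain ⟨l, hl⟩ := hev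
      exact ⟨l, by omega, by omega⟩)

end Cfsg.Agent.Lib.Helper83.SPU
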